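import Cfsg.Agent.H211.RealThree
import Cfsg.Agent.H211.LocalSection
import Cfsg.Agent.H211.TIFree
import Cfsg.Agent.Walter.ZJFusion
import Cfsg.Agent.Walter.QdAbelian
import Cfsg.Agent.Lib.SylowNormalInf
import Cfsg.Agent.Lib.MinNormal

/-!
# Normalizers of `Z(J(T))` and sections `S₃`: elementary reductions
-/

set_option autoImplicit false
set_option linter.style.haveILetI false

namespace Cfsg.Agent.H211.ThmA

universe u

open Cfsg Cfsg.Agent.PLocal Subgroup
open Cfsg.Agent.Lib.GoldschmidtFusion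

/-- `S₃` is not a section -/
abbrev Free (G : Type*) [Group G] : Prop := ¬ Lib.Involves.Involves G (Equiv.Perm (Fin 3))

theorem Free.of_injective {G H : Type*} [Group G] [Group H] (f : G →* H)
    (hf : Function.Injective f) (h : Free H) : Free G :=
  fun h1 => h (Lib.Involves.trans (Lib.Involves.of_injective f hf) h1)

theorem Free.of_surjective {G H : Type*} [Group G] [Group H] (f : G →* H)
    (hf : Function.Surjective f) (h : Free G) : Free H :=
  fun h1 => h (Lib.Involves.trans (Lib.Involves.of_surjective f hf) h1)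

theorem Free.of_le {G : Type*} [Group G] {A B : Subgroup G} (hAB : A ≤ B) (h : Free B) : Free A :=
  Free.of_injective (Subgroup.inclusion hAB) (Subgroup.inclusion_injective hAB) h

theorem Free.of_map {G H : Type*} [Group G] [Group H] (f : G →* H) {A : Subgroup G} (h : Free A) :
    Free (A.map f) :=
  Free.of_surjective (f.subgroupMap A) (f.subgroupMap_surjective A) h

theorem Free.top {G : Type*} [Group G] (h : Free (⊤ : Subgroup G)) : Free G :=
  Free.of_injective (Subgroup.topEquiv.symm : G ≃* (⊤ : Subgroup G)).toMonoidHom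
    (Subgroup.topEquiv.symm : G ≃* (⊤ : Subgroup G)).injective h

theorem Free.subgroup {G : Type*} [Group G] (h : Free G) (A : Subgroup G) : Free A :=
  Free.of_injective A.subtype A.subtype_injective h

theorem Free.map_conj {G : Type*} [Group G] {A : Subgroup G} (h : Free A) (g : G) :
    Free (A.map (MulAut.conj g).toMonoidHom) := Free.of_map _ h

/-- lifting 2-elements -/
theorem exists_two_elt {G : Type*} [Group G] [Finite G] (C N : Subgroup G) [C.Normal]
    (hNC : N ⊔ C = ⊤) {u : G} (hu : ∃ n : ℕ, u ^ 2 ^ n = 1) :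
    ∃ n ∈ N, (∃ k : ℕ, n ^ 2 ^ k = 1) ∧ n⁻¹ * u ∈ C := by
  obtain ⟨a, ha⟩ := hu
  have hu1 : u ∈ N ⊔ C := by rw [hNC]; trivial
  obtain ⟨n, hn, c, hc, hnc⟩ := Subgroup.mem_sup_of_normal_right.1 hu1
  obtain ⟨k, m, hm, hkm⟩ := Nat.exists_eq_two_pow_mul_odd (orderOf_pos n).ne'
  have hbar : (QuotientGroup.mk' C n) = QuotientGroup.mk' C u := by
    rw [← hnc, map_mul]
    have : QuotientGroup.mk' C c = 1 := (QuotientGroup.eq_one_iff c).2 hc
    rw [this, mul_one]
  have hord : m.Coprime (orderOf (QuotientGroup.mk' C u)) := by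
    have h1 : orderOf (QuotientGroup.mk' C u) ∣ 2 ^ a := by
      apply orderOf_dvd_of_pow_eq_one
      rw [← map_pow, ha, map_one]
    refine Nat.Coprime.coprime_dvd_right h1 ?_
    exact Nat.Coprime.pow_right a (Nat.coprime_two_right.2 hm)
  obtain ⟨j, hj⟩ := exists_pow_eq_self_of_coprime hord
  refine ⟨(n ^ m) ^ j, N.pow_mem (N.pow_mem hn _) _, ⟨k, ?_⟩, ?_⟩
  · rw [← pow_mul, ← pow_mul]
    have : m * (j * 2 ^ k) = orderOf n * j := by rw [hkm]; ring
    rw [this, pow_mul, pow_orderOf_eq_one, one_pow]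
  · have h2 : QuotientGroup.mk' C (((n ^ m) ^ j)⁻¹ * u) = 1 := by
      rw [map_mul, map_inv, map_pow, map_pow, hbar, hj, inv_mul_cancel]
    exact (QuotientGroup.eq_one_iff _).1 h2

/-- The property proved by induction: if `N(Z(J(T)))` has no section `S₃` then neither has `G`. -/
def Good (G : Type u) [Group G] [Finite G] : Prop :=
  ∀ T : Sylow 3 G, Free (normalizer (centerThompsonAOf (T : Subgroup G) : Set G)) → Free G

/-- use of the induction hypothesis for a subgroup -/
theorem sub {G : Type u} [Group G] [Finite G] {H R : Subgroup G} (hgood : Good H) (hRH : R ≤ H)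
    (hR : IsPGroup 3 R) (hidx : ¬ 3 ∣ R.relIndex H)
    (hfree : Free (normalizer (centerThompsonAOf R : Set G))) : Free H := by
  haveI : Fact (Nat.Prime 3) := ⟨Nat.prime_three⟩
  have hR' : IsPGroup 3 (R.subgroupOf H) := hR.comap_of_injective H.subtype H.subtype_injective
  let P : Sylow 3 H := hR'.toSylow hidx
  have hPR : (P : Subgroup H) = R.subgroupOf H := rfl
  have hPmap : (P : Subgroup H).map H.subtype = R := by
    rw [hPR, subgroupOf_map_subtype, inf_eq_left.2 hRH]
  have hmap : (centerThompsonAOf (P : Subgroup H)).map H.subtype = centerThompsonAOf R := by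
    rw [ThompsonJA.map_centerThompsonAOf H.subtype H.subtype_injective, hPmap]
  refine hgood P ?_
  have hle : (normalizer (centerThompsonAOf (P : Subgroup H) : Set H)).map H.subtype ≤
      normalizer (centerThompsonAOf R : Set G) := by
    rintro _ ⟨y, hy, rfl⟩
    change (y : G) ∈ normalizer (centerThompsonAOf R : Set G)
    rw [SetLike.mem_coe, mem_normalizer_iff_map_conj] at hy
    rw [mem_normalizer_iff_map_conj, ← hmap]
    have e : (MulAut.conj (y : G)).toMonoidHom.comp H.subtype =
        H.subtype.comp (MulAut.conj y).toMonoidHom := by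
      ext x; rfl
    rw [Subgroup.map_map, e, ← Subgroup.map_map, hy]
  refine Free.of_injective (((normalizer (centerThompsonAOf (P : Subgroup H) : Set H)).equivMapOfInjective
    H.subtype H.subtype_injective).toMonoidHom) (MulEquiv.injective _) (Free.of_le hle hfree)

/-- conjugates of `T` -/
theorem conj {G : Type u} [Group G] [Finite G] (T : Sylow 3 G)
    (hT : Free (normalizer (centerThompsonAOf (T : Subgroup G) : Set G))) (P : Sylow 3 G) :
    Free (normalizer (centerThompsonAOf (P : Subgroup G) : Set G)) := by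
  haveI : Fact (Nat.Prime 3) := ⟨Nat.prime_three⟩
  obtain ⟨g, rfl⟩ := MulAction.exists_smul_eq G T P
  have h1 : ((g • T : Sylow 3 G) : Subgroup G) = (T : Subgroup G).map (MulAut.conj g).toMonoidHom :=
    rfl
  rw [h1, ← ThompsonJA.map_centerThompsonAOf _ (MulAut.conj g).injective, ← map_conj_normalizer]
  exact hT.map_conj g

/-- Reduction to the case of a nontrivial normal 3-subgroup. -/
theorem of_pCore_eq_bot {G : Type u} [Group G] [Finite G]
    (hgood : ∀ H : Subgroup G, H ≠ ⊤ → Good H)
    (T : Sylow 3 G) (hT : Free (normalizer (centerThompsonAOf (T : Subgroup G) : Set G)))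
    (h1 : pCore 3 G = ⊥) : Free G := by
  haveI : Fact (Nat.Prime 3) := ⟨Nat.prime_three⟩
  intro hi
  let S : Set (Subgroup G) := {R | IsPGroup 3 R ∧ ∃ Q : Subgroup G, Q ≠ ⊥ ∧ IsPGroup 3 Q ∧
    ¬ Free (normalizer (Q : Set G)) ∧ Q ≤ R ∧ R ≤ normalizer (Q : Set G) ∧
    ¬ 3 ∣ R.relIndex (normalizer (Q : Set G))}
  have hne : S.Nonempty := by
    have hA : IsPGroup 3 (alternatingGroup (Fin 3)) := by
      rw [IsPGroup.iff_card]
      refine ⟨1, ?_⟩
      rw [nat_card_alternatingGroup]
      simp
      decide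
    have hA1 : alternatingGroup (Fin 3) ≠ ⊥ := by
      intro h0
      have h1 : Equiv.swap (0 : Fin 3) 1 * Equiv.swap (1 : Fin 3) 2 ∈ alternatingGroup (Fin 3) := by
        rw [Equiv.Perm.mem_alternatingGroup]
        decide
      rw [h0, Subgroup.mem_bot] at h1
      revert h1
      decide
    obtain ⟨Q, hQ, hQ1, hQi⟩ :=
      LocalSection.exists_local (alternatingGroup (Fin 3)) inferInstance hA hA1 hi
    obtain ⟨R, hR1, hR2, hR3, hR4⟩ := exists_sylow_in (p := 3) (N := normalizer (Q : Set G))
      (D := Q) le_normalizer hQ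
    exact ⟨R, hR3, Q, hQ1, hQ, fun h => h hQi, hR1, hR2, hR4⟩
  obtain ⟨R, ⟨hR3, Q, hQ1, hQ3, hQf, hQR, hRN, hRi⟩, hmax⟩ :=
    Set.exists_max_image S (fun R => Nat.card R) (Set.toFinite _) hne
  have hQtop : normalizer (Q : Set G) ≠ ⊤ := by
    intro h
    have hQn : Q.Normal := normalizer_eq_top_iff.1 h
    apply hQ1
    rw [← le_bot_iff, ← h1]
    exact Lib.Cores.le_pCore hQn hQ3
  have hZf : ¬ Free (normalizer (centerThompsonAOf R : Set G)) := fun h =>
    hQf (sub (hgood _ hQtop) hRN hR3 hRi h)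
  have hRne : R ≠ ⊥ := by
    rintro rfl
    exact hQ1 (le_bot_iff.1 hQR)
  have hZ1 : centerThompsonAOf R ≠ ⊥ := ThompsonJA.centerThompsonAOf_ne_bot R hR3 hRne
  have hZ3 : IsPGroup 3 (centerThompsonAOf R) := hR3.to_le (ThompsonJA.centerThompsonAOf_le R)
  obtain ⟨P, hP⟩ := hR3.exists_le_sylow
  have hlt : R < (P : Subgroup G) := by
    refine lt_of_le_of_ne hP ?_
    intro h
    apply hZf
    rw [h]
    exact conj T hT P
  have hlt2 := lt_inf_normalizer P.isPGroup' hlt
  have hle : (P : Subgroup G) ⊓ normalizer (R : Set G) ≤ normalizer (centerThompsonAOf R : Set G) :=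
    inf_le_right.trans (ThompsonJA.normalizer_le_normalizer_centerThompsonAOf R)
  obtain ⟨R', hR1', hR2', hR3', hR4'⟩ := exists_sylow_in (p := 3) hle (P.isPGroup'.to_le inf_le_left)
  have hmem : R' ∈ S := by
    refine ⟨hR3', centerThompsonAOf R, hZ1, hZ3, hZf, ?_, hR2', hR4'⟩
    exact (ThompsonJA.centerThompsonAOf_le R).trans (hlt2.le.trans hR1')
  have h5 := hmax R' hmem
  have h6 : R < R' := lt_of_lt_of_le hlt2 hR1'
  have h7 : Nat.card R < Nat.card R' := by
    by_contra hcon
    push Not at hcon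
    exact h6.ne (Subgroup.eq_of_le_of_card_ge h6.le hcon)
  omega

end Cfsg.Agent.H211.ThmA
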